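import Mathlib
import Cfsg.Agent.Lib.Sporadic.J2.Group
import Cfsg.Agent.Lib.Sporadic.J2.Center
import Cfsg.Agent.Lib.Sporadic.J2.CentData
import Cfsg.Agent.Lib.Compute.J3.CentSmall

/-!
# The centralizer of a reflection in the Hall-Janko group

It is isomorphic to the group of degree 80 and shape `2^{1+4}_- : A₅` constructed for `J₃`.
-/

set_option autoImplicit false
set_option maxRecDepth 100000

namespace Cfsg.Agent.Lib.Sporadic.J2.CentThm

open Cfsg Cfsg.Spor Cfsg.Agent.Lib.Compute.PermCert Cfsg.Agent.Lib.Compute.BlockIso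
open Cfsg.Agent.Lib.Sporadic.J2.Data3 Cfsg.Agent.Lib.Sporadic.J2.ChainCheck Cfsg.Agent.Lib.Sporadic.J2.Group
open Cfsg.Agent.Lib.Sporadic.J2.CentData Cfsg.Agent.Lib.Sporadic.J2.Lines Cfsg.Agent.Lib.Sporadic.J2.Lines2
open Cfsg.Agent.Lib.Compute.J3.CentSmall (Shape CC card_CC shape_CC)

/-- The first seed. -/
def d0D : SeedD := seedList.head (by decide)

/-- The permutation of the first seed. -/
def zE : Elt := d0D.elt

/-! ### Checks -/

theorem valid_x1 : validB 9 511 315 x1E = true := by decide +kernel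
theorem valid_x2 : validB 9 511 315 x2E = true := by decide +kernel
theorem valid_w : validB 9 511 315 wE = true := by decide +kernel
theorem valid_z : validB 9 511 315 zE = true := by decide +kernel
theorem sift_x1 : sift 9 511 315 [lv0, lv1, lv2] (get 9 511 x1E.f) = true := by decide +kernel
theorem sift_x2 : sift 9 511 315 [lv0, lv1, lv2] (get 9 511 x2E.f) = true := by decide +kernel
theorem sift_w : sift 9 511 315 [lv0, lv1, lv2] (get 9 511 wE.f) = true := by decide +kernel

/-- The check that two permutations commute. -/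
def commChk (x z : Elt) : Bool :=
  allB (fun i => Nat.beq (get 9 511 x.f (get 9 511 z.f i)) (get 9 511 z.f (get 9 511 x.f i))) 315

theorem comm_x1 : commChk x1E zE = true := by decide +kernel
theorem comm_x2 : commChk x2E zE = true := by decide +kernel

theorem comm_of_chk {x z : Elt} (hx : validB 9 511 315 x = true) (hz : validB 9 511 315 z = true)
    (h : commChk x z = true) : permOf 9 511 315 x * permOf 9 511 315 z = permOf 9 511 315 z * permOf 9 511 315 x := by
  ext i
  have h1 := (allB_iff _ _).mp h i i.2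
  rw [Nat.beq_eq] at h1
  rw [Equiv.Perm.mul_apply, Equiv.Perm.mul_apply, permOf_apply hx, permOf_apply hz, permOf_apply hz, permOf_apply hx]
  exact h1

/-- The label of a point, as a number. -/
def labN (i : ℕ) : ℕ := get 8 255 labT i

/-- The label of a point. -/
def lab (i : Fin 315) : Option (Fin 80) :=
  if h : labN i < 80 then some ⟨labN i, h⟩ else none

/-- The check of the action on the labels. -/
def labChk (x e : Elt) : Bool :=
  allB (fun i => !(Nat.blt (labN i) 80) ||
    (Nat.beq (labN (get 9 511 x.f i)) (get 7 127 e.f (labN i)) && Nat.blt (labN (get 9 511 x.f i)) 80)) 315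

theorem lab_x1 : labChk x1E Cfsg.Agent.Lib.Compute.J3.CentData.e1 = true := by decide +kernel
theorem lab_x2 : labChk x2E Cfsg.Agent.Lib.Compute.J3.CentData.e2 = true := by decide +kernel
theorem lab_surj_chk : allB (fun y => Nat.blt (get 9 511 oT y) 315 && Nat.beq (labN (get 9 511 oT y)) y) 80 = true := by
  decide +kernel

theorem lab_spec {x e : Elt} (hx : validB 9 511 315 x = true) (he : validB 7 127 80 e = true) (h : labChk x e = true)
    (i : Fin 315) (y : Fin 80) (hy : lab i = some y) :
    lab (permOf 9 511 315 x i) = some (permOf 7 127 80 e y) := by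
  have hi : labN i < 80 ∧ labN i = y := by
    unfold lab at hy
    split_ifs at hy with h1
    exact ⟨h1, congrArg Fin.val (Option.some.inj hy)⟩
  have h1 := (allB_iff _ _).mp h i i.2
  have h2 : Nat.blt (labN i) 80 = true := by
    rw [Nat.blt_eq]
    exact hi.1
  rw [h2] at h1
  simp only [Bool.not_true, Bool.false_or, Bool.and_eq_true, Nat.beq_eq, Nat.blt_eq] at h1
  rw [hi.2] at h1
  unfold lab
  have e1 : ((permOf 9 511 315 x i : Fin 315) : ℕ) = get 9 511 x.f i := permOf_apply hx i
  rw [e1, dif_pos h1.2]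
  congr 1
  apply Fin.ext
  rw [permOf_apply he]
  exact h1.1

theorem lab_surj (y : Fin 80) : ∃ i, lab i = some y := by
  have h1 := (allB_iff _ _).mp lab_surj_chk y y.2
  simp only [Bool.and_eq_true, Nat.blt_eq, Nat.beq_eq] at h1
  refine ⟨⟨_, h1.1⟩, ?_⟩
  unfold lab
  have h2 : labN (get 9 511 oT y) < 80 := by
    rw [h1.2]
    exact y.2
  rw [dif_pos h2]
  congr 1
  exact Fin.ext h1.2

/-- The value of a conjugate of the seed. -/
def cv (u : Elt) (b : ℕ) : ℕ :=
  get 9 511 u.f (get 9 511 wE.g (get 9 511 zE.f (get 9 511 wE.f (get 9 511 u.g b))))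

/-- The code of a conjugate of the seed. -/
def codeN (u : Elt) : ℕ := 512 * cv u 0 + cv u 91

theorem nodup_codes : nodupB (lv0.trans.map (fun e => codeN e.u)) = true := by decide +kernel

theorem conj_val {u : Elt} (hu : validB 9 511 315 u = true) (b : Fin 315) :
    (((permOf 9 511 315 u * (permOf 9 511 315 wE)⁻¹ * permOf 9 511 315 zE *
      (permOf 9 511 315 u * (permOf 9 511 315 wE)⁻¹)⁻¹) b : Fin 315) : ℕ) = cv u b := by
  unfold cv
  rw [← permOf_symm_apply hu b, ← permOf_apply valid_w, ← permOf_apply valid_z, ← permOf_symm_apply valid_w,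
    ← permOf_apply hu]
  simp only [mul_inv_rev, inv_inv, Equiv.Perm.mul_apply]

/-! ### The centralizer in the group of the lines -/

/-- The size of a conjugacy class is the index of the centralizer. -/
theorem carrier_card_index {G : Type*} [Group G] [Finite G] (g : G) :
    Nat.card (ConjClasses.mk g).carrier = (Subgroup.centralizer ({g} : Set G)).index := by
  have h1 := MulAction.index_stabilizer (ConjAct G) g
  have h2 : (Subgroup.centralizer ({g} : Set G)) =
      (MulAction.stabilizer (ConjAct G) g).comap (ConjAct.toConjAct (G := G)).toMonoidHom := by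
    ext y
    rw [Subgroup.mem_comap, MulAction.mem_stabilizer_iff, Subgroup.mem_centralizer_iff]
    simp only [Set.mem_singleton_iff, forall_eq]
    show g * y = y * g ↔ ConjAct.toConjAct y • g = g
    rw [ConjAct.toConjAct_smul, mul_inv_eq_iff_eq_mul, eq_comm]
  rw [h2, Subgroup.index_comap_of_surjective _ (ConjAct.toConjAct (G := G)).surjective, h1,
    ConjAct.orbit_eq_carrier_conjClasses]
  rfl

/-- The centralizer of an element in an isomorphic group. -/
noncomputable def centEquiv {G H : Type*} [Group G] [Group H] (e : G ≃* H) (t : G) :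
    ↥(Subgroup.centralizer ({t} : Set G)) ≃* ↥(Subgroup.centralizer ({e t} : Set H)) := by
  have hmap : (Subgroup.centralizer ({t} : Set G)).map e.toMonoidHom = Subgroup.centralizer ({e t} : Set H) := by
    ext y
    rw [Subgroup.mem_centralizer_singleton_iff]
    constructor
    · rintro ⟨x, hx, rfl⟩
      rw [SetLike.mem_coe, Subgroup.mem_centralizer_singleton_iff] at hx
      show e x * e t = e t * e x
      rw [← map_mul, ← map_mul, hx]
    · intro hy
      refine ⟨e.symm y, ?_, e.apply_symm_apply y⟩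
      rw [SetLike.mem_coe, Subgroup.mem_centralizer_singleton_iff]
      apply e.injective
      rw [map_mul, map_mul, e.apply_symm_apply]
      exact hy
  exact (e.subgroupMap _).trans (MulEquiv.subgroupCongr hmap)

theorem mem_of_sift {e : Elt} (hv : validB 9 511 315 e = true) (hs : sift 9 511 315 [lv0, lv1, lv2] (get 9 511 e.f) = true) :
    permOf 9 511 315 e ∈ J315 :=
  (sift_iff chain_ok _ _ (fun i => (permOf_apply hv i).symm)).mpr hs

theorem d0_mem : d0D ∈ seedList := List.head_mem _

/-- The first seed, as an index. -/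
def d0 : SeedI := ⟨d0D, d0_mem⟩

theorem z_mem : permOf 9 511 315 zE ∈ J315 := by
  show σ d0 ∈ J315
  rw [← closure_σ]
  exact Subgroup.subset_closure ⟨d0, rfl⟩

/-- The seed as an element of the group. -/
def z0 : J315 := ⟨permOf 9 511 315 zE, z_mem⟩

theorem trans_facts {e : TEntry} (he : e ∈ lv0.trans) :
    validB 9 511 315 e.u = true ∧ permOf 9 511 315 e.u ∈ J315 := by
  have hc := chain_ok
  simp only [chainCheck, Bool.and_eq_true] at hc
  have hf := levelFacts hc.1
  exact ⟨hf.trans_valid e he, hf.trans_mem e he⟩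

theorem card_cent_le : Nat.card (Subgroup.centralizer ({z0} : Set J315)) ≤ 1920 := by
  classical
  have hpick : ∀ i : Fin 315, ∃ e ∈ lv0.trans, e.pt = i := hcover
  choose E hE1 hE2 using hpick
  let W : J315 := ⟨permOf 9 511 315 wE, mem_of_sift valid_w sift_w⟩
  let U : Fin 315 → J315 := fun i => ⟨permOf 9 511 315 (E i).u, (trans_facts (hE1 i)).2⟩
  let Fn : Fin 315 → (ConjClasses.mk z0).carrier := fun i => ⟨(U i * W⁻¹) * z0 * (U i * W⁻¹)⁻¹, by
    rw [ConjClasses.mem_carrier_iff_mk_eq, ConjClasses.mk_eq_mk_iff_isConj]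
    exact (isConj_iff.mpr ⟨U i * W⁻¹, rfl⟩).symm⟩
  have hFn : Function.Injective Fn := by
    intro i j hij
    have h1 : (U i * W⁻¹) * z0 * (U i * W⁻¹)⁻¹ = (U j * W⁻¹) * z0 * (U j * W⁻¹)⁻¹ := congrArg Subtype.val hij
    have h2 : ((((U i * W⁻¹) * z0 * (U i * W⁻¹)⁻¹ : J315) : Equiv.Perm (Fin 315))) =
        (((U j * W⁻¹) * z0 * (U j * W⁻¹)⁻¹ : J315) : Equiv.Perm (Fin 315)) := congrArg Subtype.val h1
    have h3 : ∀ b : Fin 315, cv (E i).u b = cv (E j).u b := by
      intro b
      rw [← conj_val (trans_facts (hE1 i)).1 b, ← conj_val (trans_facts (hE1 j)).1 b]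
      exact congrArg (fun p : Equiv.Perm (Fin 315) => ((p b : Fin 315) : ℕ)) h2
    have h4 : codeN (E i).u = codeN (E j).u := by
      unfold codeN
      rw [h3 ⟨0, by norm_num⟩, h3 ⟨91, by norm_num⟩]
    have h5 := List.inj_on_of_nodup_map (nodupB_iff nodup_codes) (hE1 i) (hE1 j) h4
    have h6 : ((i : Fin 315) : ℕ) = j := by rw [← hE2 i, ← hE2 j, h5]
    exact Fin.ext h6
  have h1 : 315 ≤ Nat.card (ConjClasses.mk z0).carrier := by
    have h2 := Nat.card_le_card_of_injective Fn hFn
    simpa using h2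
  rw [carrier_card_index] at h1
  have h2 := Subgroup.card_mul_index (Subgroup.centralizer ({z0} : Set J315))
  rw [card_J315] at h2
  have h3 : Nat.card (Subgroup.centralizer ({z0} : Set J315)) * 315 ≤
      Nat.card (Subgroup.centralizer ({z0} : Set J315)) * (Subgroup.centralizer ({z0} : Set J315)).index :=
    Nat.mul_le_mul_left _ h1
  omega

theorem shape_z0 : Shape ↥(Subgroup.centralizer ({z0} : Set J315)) := by
  have hZ := card_cent_le
  let X1 : J315 := ⟨permOf 9 511 315 x1E, mem_of_sift valid_x1 sift_x1⟩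
  let X2 : J315 := ⟨permOf 9 511 315 x2E, mem_of_sift valid_x2 sift_x2⟩
  have hX1 : X1 ∈ Subgroup.centralizer ({z0} : Set J315) := by
    rw [Subgroup.mem_centralizer_singleton_iff]
    apply Subtype.ext
    exact comm_of_chk valid_x1 valid_z comm_x1
  have hX2 : X2 ∈ Subgroup.centralizer ({z0} : Set J315) := by
    rw [Subgroup.mem_centralizer_singleton_iff]
    apply Subtype.ext
    exact comm_of_chk valid_x2 valid_z comm_x2
  have hle : Subgroup.closure {X1, X2} ≤ Subgroup.centralizer ({z0} : Set J315) := by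
    rw [Subgroup.closure_le]
    rintro _ (rfl | h)
    · exact hX1
    · rw [Set.mem_singleton_iff] at h
      rw [h]
      exact hX2
  obtain ⟨ψ, hψ⟩ := range_of_label J315.subtype lab lab_surj {X1, X2}
    {Cfsg.Agent.Lib.Compute.J3.CentSmall.p1, Cfsg.Agent.Lib.Compute.J3.CentSmall.p2}
    (by
      rintro a (rfl | h)
      · exact ⟨_, Or.inl rfl, fun i y hy => lab_spec valid_x1 Cfsg.Agent.Lib.Compute.J3.CentSmall.valid_e1 lab_x1 i y hy⟩
      · rw [Set.mem_singleton_iff] at h
        subst h
        exact ⟨_, Or.inr rfl, fun i y hy => lab_spec valid_x2 Cfsg.Agent.Lib.Compute.J3.CentSmall.valid_e2 lab_x2 i y hy⟩)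
    (by
      rintro p (rfl | h)
      · exact ⟨X1, Or.inl rfl, fun i y hy => lab_spec valid_x1 Cfsg.Agent.Lib.Compute.J3.CentSmall.valid_e1 lab_x1 i y hy⟩
      · rw [Set.mem_singleton_iff] at h
        subst h
        exact ⟨X2, Or.inr rfl, fun i y hy => lab_spec valid_x2 Cfsg.Agent.Lib.Compute.J3.CentSmall.valid_e2 lab_x2 i y hy⟩)
  have hcardE : 1920 ≤ Nat.card (Subgroup.closure {X1, X2} : Subgroup J315) := by
    have h1 : Nat.card ψ.range ≤ Nat.card (Subgroup.closure {X1, X2} : Subgroup J315) :=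
      Nat.card_le_card_of_surjective ψ.rangeRestrict ψ.rangeRestrict_surjective
    rw [hψ, card_CC] at h1
    exact h1
  have hEZ : (Subgroup.closure {X1, X2} : Subgroup J315) = Subgroup.centralizer ({z0} : Set J315) :=
    Subgroup.eq_of_le_of_card_ge hle (hZ.trans hcardE)
  have hcardE2 : Nat.card (Subgroup.closure {X1, X2} : Subgroup J315) = Nat.card CC := by
    rw [card_CC]
    apply le_antisymm _ hcardE
    rw [hEZ]
    exact hZ
  obtain ⟨eE⟩ := equiv_of_range ψ CC (le_of_eq hψ.symm) hcardE2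
  exact Shape.congr (eE.symm.trans (MulEquiv.subgroupCongr hEZ)) shape_CC

/-! ### Back to the Hall-Janko group -/

theorem iso_F (d : SeedI) (hm : F (τ d) ∈ twoJ2) :
    ((isoJ (QuotientGroup.mk ⟨F (τ d), hm⟩ : J2) : J315) : Equiv.Perm (Fin 315)) = σ d := by
  show Action.phi setup twoJ2_eq ⟨F (τ d), hm⟩ = σ d
  ext j
  congr 1
  apply setup.inj
  exact (Action.phi_apply setup twoJ2_eq ⟨F (τ d), hm⟩ j).trans (F_conj d j)

/-- The centralizer of a reflection. -/
theorem shape_reflection (f : Equiv.Perm icoLeech) (hf : IsIcoReflection f) (hfm : f ∈ twoJ2) :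
    Shape ↥(Subgroup.centralizer {(QuotientGroup.mk ⟨f, hfm⟩ : J2)}) := by
  obtain ⟨i, rfl⟩ := isRefl_iff.mp hf
  obtain ⟨g, hg, hgc⟩ := Action.conj_trans setup twoJ2_eq i (τ d0)
  have hm0 : F (τ d0) ∈ twoJ2 := hgc ▸ (twoJ2.mul_mem (twoJ2.mul_mem hg hfm) (twoJ2.inv_mem hg))
  let t : J2 := QuotientGroup.mk ⟨F i, hfm⟩
  let gq : J2 := QuotientGroup.mk ⟨g, hg⟩
  have hconj : gq * t * gq⁻¹ = QuotientGroup.mk ⟨F (τ d0), hm0⟩ := by
    have : (⟨g, hg⟩ : twoJ2) * ⟨F i, hfm⟩ * (⟨g, hg⟩ : twoJ2)⁻¹ = ⟨F (τ d0), hm0⟩ := Subtype.ext hgc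
    rw [← this]
    rfl
  let c : J315 ≃* J315 := MulAut.conj (isoJ gq)
  let e : J2 ≃* J315 := isoJ.trans c
  have het : e t = z0 := by
    apply Subtype.ext
    show ((isoJ gq * isoJ t * (isoJ gq)⁻¹ : J315) : Equiv.Perm (Fin 315)) = permOf 9 511 315 zE
    rw [← map_inv, ← map_mul, ← map_mul, hconj, iso_F d0 hm0]
    rfl
  have h := centEquiv e t
  rw [het] at h
  exact Shape.congr h.symm shape_z0

end Cfsg.Agent.Lib.Sporadic.J2.CentThm
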